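import Cfsg.Agent.Lib.Helper7.Sys
import Cfsg.Agent.Lib.Helper7.TabB2
import Cfsg.Agent.Lib.Helper7.Words
import Cfsg.Agent.Lib.Helper7.F3B2
import Cfsg.Agent.Lib.Helper7.HDB2
import Cfsg.Agent.Lib.Helper7.HXB2
import Cfsg.Agent.Lib.Helper7.NHB2
import Cfsg.Agent.Lib.Helper7.CSB2
import Cfsg.Agent.Lib.Helper7.Sys2
import Cfsg.Agent.Lib.Helper7.HCard
import Cfsg.Agent.Lib.Helper7.PoinTab
import Cfsg.Agent.Lib.Helper7.PolyList
import Cfsg.Agent.Lib.Helper7.Perf
import Cfsg.Agent.Lib.Helper7.Sys5
import Cfsg.Agent.Lib.Helper7.OrderFin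

/-! The order of `B2(q)`: helper7's proof (S1060), repeated here with the imports for type `B2` only,
so that the closure does not contain the tables of the other types. -/

set_option autoImplicit false

namespace Cfsg.Agent.Lib.Helper3.B22c

open Cfsg.Lie Cfsg.Agent.Lib.Helper7

set_option maxHeartbeats 0 in
theorem addB2_0 : allFrom 0 8 (fun r => allLt 10 (addChk fastB2 r)) = true := by decide +kernel
theorem addB2 : ∀ r < 8, (fun r => allLt 10 (addChk fastB2 r)) r = true := by
  intro r hr
  exact allFrom_sound addB2_0 r (by omega) (by omega)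

noncomputable def sysB2 : Sys chevB2 where
  X := fastB2
  W := fastWB2
  ag := agreeB2
  agW := agreeWB2
  ag2 := agree2B2
  add := fun r hr => allLt_sound (addB2 r hr)
  f3 := f3B2
  hd := hdB2
  simpA := simpAB2
  hx := hxB2
  nh := nhB2
  C := cmCB2
  b1 := 5
  b2 := 4
  hb1 := by decide +kernel
  hb2 := by decide +kernel
  cB1 := cmBB2_5
  cB2 := cmBB2_4
  cS := cmSB2


set_option maxHeartbeats 0 in
noncomputable def sys2B2 : Sys2 chevB2 where
  toSys := sysB2
  even := by decide +kernel
  pos := by decide +kernel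
  ref := by decide +kernel
  j1 := 0
  j2 := 1
  hj1 := by decide +kernel
  hj2 := by decide +kernel
  hbj1 := by decide +kernel
  hbj2 := by decide +kernel
  t1 := by decide +kernel
  w0 := [0, 1, 0, 1]
  hw0 := by decide +kernel
  posOK := by decide +kernel
  negOK := by decide +kernel


set_option maxHeartbeats 0 in
theorem hcB2 {F : Type*} [Field F] [Fintype F] :
    (∏ k : Fin chevB2.rank, Nat.gcd (([1, 2] : List ℕ).getD k 1) (Fintype.card F - 1)) *
      Nat.card (chevB2.diagonalSubgroup F) = (Fintype.card F - 1) ^ chevB2.rank :=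
  sys2B2.card_diag [[0, -1], [1, 2]]
    [[2, 1], [-1, 0]]
    [[1, 2], [0, 1]]
    [[1, -2], [0, 1]]
    [1, 2] (by decide +kernel) (by decide +kernel) (by decide +kernel) (by decide +kernel)


theorem hcardB2 {F : Type*} [Field F] [Fintype F] : Nat.gcd 2 (Fintype.card F - 1) * Nat.card (chevB2.diagonalSubgroup F) =
    (Fintype.card F - 1) ^ chevB2.rank := by
  have h := hcB2 (F := F)
  have e : (∏ k : Fin chevB2.rank, Nat.gcd (([1, 2] : List ℕ).getD k 1) (Fintype.card F - 1)) =
      Nat.gcd 2 (Fintype.card F - 1) := by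
    show (∏ k : Fin 2, _) = _
    simp [Fin.prod_univ_succ]
  rwa [e] at h

noncomputable def poB2_0 : StepC where
  I := 3
  J := 2
  m := 4
  TP := 0x2010403060507030501070006020404060207000501030706050403020100
  PG := 0x2010100000000
  ACT := 0x502010302000501
  θ := 7
  IX := 0x102000003
  Psi := 0x18

set_option maxHeartbeats 0 in
theorem poB2_0_G : poB2_0.chkG fastB2 fastWB2 = true := by decide +kernel

set_option maxHeartbeats 0 in
theorem poB2_0_A_0 : allFrom 0 4 (StepC.chkA fastB2 fastWB2 poB2_0) = true := by decide +kernel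
theorem poB2_0_A : ∀ r < 4, (StepC.chkA fastB2 fastWB2 poB2_0) r = true := by
  intro r hr
  exact allFrom_sound poB2_0_A_0 r (by omega) (by omega)

set_option maxHeartbeats 0 in
theorem poB2_0_H : histP (Sys2.cntF fastB2 poB2_0) 4 = [1, 1, 1, 1] := by decide +kernel

noncomputable def poB2_1 : StepC where
  I := 2
  J := 0
  m := 2
  TP := 0x7050603040102000706050403020100
  PG := 0x1000000
  ACT := 0x100
  θ := 4
  IX := 0x1000000
  Psi := 0x0

set_option maxHeartbeats 0 in
theorem poB2_1_G : poB2_1.chkG fastB2 fastWB2 = true := by decide +kernel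

set_option maxHeartbeats 0 in
theorem poB2_1_A_0 : allFrom 0 2 (StepC.chkA fastB2 fastWB2 poB2_1) = true := by decide +kernel
theorem poB2_1_A : ∀ r < 2, (StepC.chkA fastB2 fastWB2 poB2_1) r = true := by
  intro r hr
  exact allFrom_sound poB2_1_A_0 r (by omega) (by omega)

set_option maxHeartbeats 0 in
theorem poB2_1_H : histP (Sys2.cntF fastB2 poB2_1) 2 = [1, 1] := by decide +kernel

set_option maxHeartbeats 0 in
theorem poIdB2 : prodP [[1, 1, 1, 1], [1, 1]] = prodP ([2, 4].map geomP) := by decide +kernel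

theorem poinB2 (q : ℕ) : poin (Sys2.posF chevB2) (sys2B2.WI 3) q =
    (([2, 4].map geomP).map fun L => evalP L q).prod := by
  have h0 : poin (Sys2.posF chevB2) (sys2B2.WI 3) q =
      evalP [1, 1, 1, 1] q * poin (Sys2.posF chevB2) (sys2B2.WI 2) q := by
    rw [← poB2_0_H, evalP_histP]
    exact sys2B2.step poB2_0 poB2_0_G poB2_0_A q
  have h1 : poin (Sys2.posF chevB2) (sys2B2.WI 2) q =
      evalP [1, 1] q * poin (Sys2.posF chevB2) (sys2B2.WI 0) q := by
    rw [← poB2_1_H, evalP_histP]
    exact sys2B2.step poB2_1 poB2_1_G poB2_1_A q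
  have hl : poin (Sys2.posF chevB2) (sys2B2.WI 0) q = 1 := by rw [Sys2.WI_zero, poin_bot]
  rw [← evalP_prodP, ← poIdB2, evalP_prodP, h0, h1, hl]
  simp only [List.map_cons, List.map_nil, List.prod_cons, List.prod_nil, mul_one, mul_assoc]


set_option maxHeartbeats 0 in
noncomputable def sys4B2 : Sys4 chevB2 where
  toSys2 := sys2B2
  noDbl := by decide +kernel
  pk := [2, 4]
  px := [0, 2]
  py := [0, 6]
  pj := [1, 0]
  perf := by decide +kernel
  needA := true
  hneedA := by decide +kernel
  par := [0, 0]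
  dep := [0, 1]
  irr := by decide +kernel
  lpos := by decide +kernel


set_option maxHeartbeats 0 in
theorem t2B2_0 : allFrom 0 8 (t2Chk fastB2) = true := by decide +kernel
theorem t2B2 : ∀ r < 8, (t2Chk fastB2) r = true := by
  intro r hr
  exact allFrom_sound t2B2_0 r (by omega) (by omega)

set_option maxHeartbeats 0 in
noncomputable def sys5B2 : Sys5 chevB2 where
  toSys4 := sys4B2
  t2 := t2B2
  Lv := 0x1b00000015000000140000000f0000000d000000080000000700000001
  C0 := 14
  hC := by decide +kernel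
  levOK := by decide +kernel
  Bz := 0x10000010000010000010010000000000000000000000000
  bezOK := by decide +kernel


theorem card_B2 {F : Type*} [Field F] [Fintype F] {q : ℕ} (hq : Fintype.card F = q) : Nat.gcd 2 (q - 1) * Nat.card ↥(Cfsg.Lie.chevB2.group F) = q ^ 4 * (q ^ 2 - 1) * (q ^ 4 - 1) := by
  subst hq
  have h := Sys5.order_formula sys5B2 (F := F) 3 (by decide) (Nat.gcd 2 (Fintype.card F - 1)) [2, 4] rfl
    hcardB2 (poinB2 _)
  have hn : Cfsg.Lie.chevB2.nroots / 2 = 4 := by decide
  rw [hn] at h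
  simpa [mul_assoc] using h


end Cfsg.Agent.Lib.Helper3.B22c
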